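-- Team project OHYP (S5992), package [EXIST] (helper12): the cut into sub-packages.
-- Interface file: the model form / model matrix and the sub-package statements.
import Mathlib
import Cfsg.Prelude.Def_GeometricClasses
import Cfsg.Prelude.Def_Classical
import Cfsg.Agent.Lib.Helper23.OHyp.Defs

set_option autoImplicit false
open scoped MatrixGroups
open Matrix

namespace Cfsg.Agent.Lib.Helper12.OHyp

open Cfsg.Agent.Lib.Helper23.OHyp

universe u

/-- The model form on `(κ × Fin j) ⊕ Fin f`: the orthogonal sum of `j` copies of `QE` and of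
`f` squares. -/
def modelQ {F : Type u} [Field F] {κ : Type} (QE : (κ → F) → F) (j f : ℕ)
    (v : (κ × Fin j) ⊕ Fin f → F) : F :=
  (∑ t : Fin j, QE (fun k => v (Sum.inl (k, t)))) + ∑ s : Fin f, v (Sum.inr s) ^ 2

/-- The model matrix: `y` on each of the `j` copies of `κ`, the identity on `Fin f`. -/
def modelX {F : Type u} [Field F] {κ : Type} [DecidableEq κ] (y : Matrix κ κ F) (j f : ℕ) :
    Matrix ((κ × Fin j) ⊕ Fin f) ((κ × Fin j) ⊕ Fin f) F :=
  Matrix.fromBlocks (Matrix.blockDiagonal (fun _ : Fin j => y)) 0 0 1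

/-- The conclusion of the block packages: a nondegenerate quadratic space of dimension `c` with
an isometry `y`, `y ^ r = 1`, without nonzero fixed vectors. -/
def HasBlock (F : Type u) [Field F] [Fintype F] (r : ℕ) : Prop :=
  ∃ (κ : Type) (_ : Fintype κ) (_ : DecidableEq κ) (QE : (κ → F) → F) (y : GL κ F),
    Nonempty κ ∧ Fintype.card κ = cc (Fintype.card F) r ∧
    Cfsg.Geo.IsNondegenerateQuadraticForm QE ∧
    y ∈ Cfsg.isometryGroup F QE ∧ y ^ r = 1 ∧ IsUnit ((y : Matrix κ κ F) - 1).det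

/-- [EBLK-ODD] -/
def PkgEBlkOdd : Prop :=
  ∀ (F : Type u) [Field F] [Fintype F] (r : ℕ), r.Prime → r ≠ 2 → ¬ r ∣ Fintype.card F →
    (2 : F) ≠ 0 → Odd (ordI (Fintype.card F) r) → HasBlock F r

/-- [EBLK-EVEN] -/
def PkgEBlkEven : Prop :=
  ∀ (F : Type u) [Field F] [Fintype F] (r : ℕ), r.Prime → r ≠ 2 → ¬ r ∣ Fintype.card F →
    (2 : F) ≠ 0 → Even (ordI (Fintype.card F) r) → HasBlock F r

/-- [EMQ] -/
def PkgEMQ : Prop :=
  ∀ (F : Type u) [Field F] (κ : Type) [Fintype κ] [DecidableEq κ]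
    (QE : (κ → F) → F) (j f : ℕ),
    Cfsg.Geo.IsNondegenerateQuadraticForm QE → (2 : F) ≠ 0 →
    Cfsg.Geo.IsNondegenerateQuadraticForm (modelQ QE j f)

/-- [EMX] -/
def PkgEMX : Prop :=
  ∀ (F : Type u) [Field F] (κ : Type) [Fintype κ] [DecidableEq κ] [Nonempty κ]
    (QE : (κ → F) → F) (y : GL κ F) (r j f : ℕ),
    y ∈ Cfsg.isometryGroup F QE → r.Prime → y ^ r = 1 →
    IsUnit ((y : Matrix κ κ F) - 1).det → 1 ≤ j →
    ∃ x' : GL ((κ × Fin j) ⊕ Fin f) F,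
      (x' : Matrix ((κ × Fin j) ⊕ Fin f) ((κ × Fin j) ⊕ Fin f) F) =
        modelX (y : Matrix κ κ F) j f ∧
      x' ∈ Cfsg.isometryGroup F (modelQ QE j f) ∧ orderOf x' = r ∧
      Module.finrank F (fixSp (modelX (y : Matrix κ κ F) j f)) = f

/-- [ESIM] -/
def PkgESim : Prop :=
  ∀ (F : Type u) [Field F] [Fintype F] (ι ι' : Type) [Fintype ι] [DecidableEq ι]
    [Fintype ι'] [DecidableEq ι'] (Q : (ι → F) → F) (Q' : (ι' → F) → F),
    Cfsg.Geo.IsNondegenerateQuadraticForm Q → Cfsg.Geo.IsNondegenerateQuadraticForm Q' →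
    (2 : F) ≠ 0 → Odd (Fintype.card ι) → Fintype.card ι = Fintype.card ι' →
    ∃ (a : F) (e : (ι → F) ≃ₗ[F] (ι' → F)), a ≠ 0 ∧ ∀ v, Q v = a * Q' (e v)

/-- [ECONJ] -/
def PkgEConj : Prop :=
  ∀ (F : Type u) [Field F] (ι ι' : Type) [Fintype ι] [DecidableEq ι]
    [Fintype ι'] [DecidableEq ι'] (Q : (ι → F) → F) (Q' : (ι' → F) → F)
    (a : F) (e : (ι → F) ≃ₗ[F] (ι' → F)), a ≠ 0 → (∀ v, Q v = a * Q' (e v)) →
    ∀ x' : GL ι' F, x' ∈ Cfsg.isometryGroup F Q' →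
      ∃ x : GL ι F, x ∈ Cfsg.isometryGroup F Q ∧ orderOf x = orderOf x' ∧
        Module.finrank F (fixSp (x : Matrix ι ι F)) =
          Module.finrank F (fixSp (x' : Matrix ι' ι' F))

/-- Assembly of [EXIST] from the sub-packages. -/
theorem pkgExist_of (hBo : PkgEBlkOdd.{u}) (hBe : PkgEBlkEven.{u}) (hMQ : PkgEMQ.{u})
    (hMX : PkgEMX.{u}) (hS : PkgESim.{u}) (hC : PkgEConj.{u}) : PkgExist.{u} := by
  intro F _ _ ι _ _ Q hQ h2 hodd r hr hr2 hrq j hj hle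
  have hblk : HasBlock F r := by
    rcases Nat.even_or_odd (ordI (Fintype.card F) r) with he | ho
    · exact hBe F r hr hr2 hrq h2 he
    · exact hBo F r hr hr2 hrq h2 ho
  obtain ⟨κ, instF, instD, QE, y, hne, hcard, hQE, hy, hyr, hdet⟩ := hblk
  set f : ℕ := Fintype.card ι - cc (Fintype.card F) r * j with hf
  have hQ' := hMQ F κ QE j f hQE h2
  obtain ⟨x', hx'eq, hx'mem, hx'ord, hx'fix⟩ := hMX F κ QE y r j f hy hr hyr hdet hj
  have hcard' : Fintype.card ι = Fintype.card ((κ × Fin j) ⊕ Fin f) := by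
    rw [Fintype.card_sum, Fintype.card_prod, Fintype.card_fin, Fintype.card_fin, hcard]
    omega
  obtain ⟨a, e, ha, hae⟩ := hS F ι ((κ × Fin j) ⊕ Fin f) Q (modelQ QE j f) hQ hQ' h2 hodd hcard'
  obtain ⟨x, hx, hxo, hxf⟩ := hC F ι ((κ × Fin j) ⊕ Fin f) Q (modelQ QE j f) a e ha hae x' hx'mem
  refine ⟨x, hx, hxo.trans hx'ord, ?_⟩
  rw [hxf, hx'eq, hx'fix]
  omega

end Cfsg.Agent.Lib.Helper12.OHyp
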