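-- Team project OHYP (S5992), package [EXIST], sub-package [EBLK-ODD] (helper12):
-- the hyperbolic block `M₀ ⊕ (M₀⁻¹)ᵀ` on the plus-type form of dimension `2 i`.
import Mathlib
import Cfsg.Agent.Lib.Helper40.Elusive
import Cfsg.Agent.Lib.Helper84.OHyp.Div
import Cfsg.Agent.Lib.Helper12.OHyp.ExDefs

set_option autoImplicit false
open scoped MatrixGroups
open Matrix

namespace Cfsg.Agent.Lib.Helper12.OHyp

open Cfsg.Agent.Lib.Helper23.OHyp

universe u

section eblkodd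

variable {F : Type u} [Field F]

theorem polar_quadFormPlus (i : ℕ) (u v : Fin i ⊕ Fin i → F) :
    QuadraticMap.polar (Cfsg.quadFormPlus i F) u v =
      ∑ k : Fin i, (u (Sum.inl k) * v (Sum.inr k) + v (Sum.inl k) * u (Sum.inr k)) := by
  simp only [QuadraticMap.polar, Cfsg.quadFormPlus, Pi.add_apply]
  rw [← Finset.sum_sub_distrib, ← Finset.sum_sub_distrib]
  apply Finset.sum_congr rfl
  intro k _
  ring

theorem nondeg_quadFormPlus (i : ℕ) :
    Cfsg.Geo.IsNondegenerateQuadraticForm (Cfsg.quadFormPlus i F) := by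
  classical
  refine ⟨?_, ⟨?_, ?_, ?_, ?_⟩, ?_⟩
  · intro c v
    simp only [Cfsg.quadFormPlus, Pi.smul_apply, smul_eq_mul]
    rw [Finset.mul_sum]
    apply Finset.sum_congr rfl
    intro k _
    ring
  · intro x y v
    simp only [polar_quadFormPlus, Pi.add_apply]
    rw [← Finset.sum_add_distrib]
    apply Finset.sum_congr rfl
    intro k _
    ring
  · intro c x v
    simp only [polar_quadFormPlus, Pi.smul_apply, smul_eq_mul]
    rw [Finset.mul_sum]
    apply Finset.sum_congr rfl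
    intro k _
    ring
  · intro v x y
    simp only [polar_quadFormPlus, Pi.add_apply]
    rw [← Finset.sum_add_distrib]
    apply Finset.sum_congr rfl
    intro k _
    ring
  · intro c v x
    simp only [polar_quadFormPlus, Pi.smul_apply, smul_eq_mul]
    rw [Finset.mul_sum]
    apply Finset.sum_congr rfl
    intro k _
    ring
  · intro v hv
    have hex : ∃ z, v z ≠ 0 := by
      by_contra h
      push Not at h
      exact hv (funext h)
    obtain ⟨z, hz⟩ := hex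
    have key : ∃ x : Fin i ⊕ Fin i → F,
        QuadraticMap.polar (Cfsg.quadFormPlus i F) x v ≠ 0 := by
      rcases z with k | k
      · refine ⟨Pi.single (Sum.inr k) 1, ?_⟩
        rw [polar_quadFormPlus]
        simpa [Pi.single_apply] using hz
      · refine ⟨Pi.single (Sum.inl k) 1, ?_⟩
        rw [polar_quadFormPlus]
        simpa [Pi.single_apply] using hz
    obtain ⟨x, hx⟩ := key
    exact ⟨⟨x, hx⟩, ⟨x, by rwa [QuadraticMap.polar_comm]⟩⟩

theorem fromBlocks_diag_pow {n : Type} [Fintype n] [DecidableEq n] (A D : Matrix n n F)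
    (k : ℕ) : (Matrix.fromBlocks A 0 0 D) ^ k = Matrix.fromBlocks (A ^ k) 0 0 (D ^ k) := by
  induction k with
  | zero => simp [Matrix.fromBlocks_one]
  | succ k ih =>
    rw [pow_succ, ih, Matrix.fromBlocks_multiply, pow_succ, pow_succ]
    simp

/-- The block matrix `A ⊕ A'ᵀ` for mutually inverse `A`, `A'`. -/
def hypGL {i : ℕ} (M : GL (Fin i) F) : GL (Fin i ⊕ Fin i) F where
  val := Matrix.fromBlocks (M : Matrix (Fin i) (Fin i) F) 0 0
    ((M⁻¹ : GL (Fin i) F) : Matrix (Fin i) (Fin i) F)ᵀ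
  inv := Matrix.fromBlocks ((M⁻¹ : GL (Fin i) F) : Matrix (Fin i) (Fin i) F) 0 0
    (M : Matrix (Fin i) (Fin i) F)ᵀ
  val_inv := by
    rw [Matrix.fromBlocks_multiply, ← Matrix.transpose_mul]
    simp [Matrix.fromBlocks_one]
  inv_val := by
    rw [Matrix.fromBlocks_multiply, ← Matrix.transpose_mul]
    simp [Matrix.fromBlocks_one]

theorem hypGL_mem {i : ℕ} (M : GL (Fin i) F) :
    hypGL M ∈ Cfsg.isometryGroup F (Cfsg.quadFormPlus i F) := by
  intro v _
  show Cfsg.quadFormPlus i F ((hypGL M : GL (Fin i ⊕ Fin i) F).val *ᵥ v) = _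
  simp only [hypGL, Matrix.fromBlocks_mulVec, Cfsg.quadFormPlus, Sum.elim_inl, Sum.elim_inr,
    Matrix.zero_mulVec, add_zero, zero_add]
  have h1 : ∑ k : Fin i, ((M : Matrix (Fin i) (Fin i) F) *ᵥ (v ∘ Sum.inl)) k *
      (((M⁻¹ : GL (Fin i) F) : Matrix (Fin i) (Fin i) F)ᵀ *ᵥ (v ∘ Sum.inr)) k =
      ((M : Matrix (Fin i) (Fin i) F) *ᵥ (v ∘ Sum.inl)) ⬝ᵥ
        (((M⁻¹ : GL (Fin i) F) : Matrix (Fin i) (Fin i) F)ᵀ *ᵥ (v ∘ Sum.inr)) := rfl
  rw [h1, Matrix.dotProduct_mulVec, Matrix.vecMul_transpose, Matrix.mulVec_mulVec]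
  have h2 : ((M⁻¹ : GL (Fin i) F) : Matrix (Fin i) (Fin i) F) *
      (M : Matrix (Fin i) (Fin i) F) = 1 := by
    rw [← Units.val_mul, inv_mul_cancel, Units.val_one]
  rw [h2, Matrix.one_mulVec]
  rfl

theorem hypGL_pow {i : ℕ} (M : GL (Fin i) F) (r : ℕ) (h : M ^ r = 1) : hypGL M ^ r = 1 := by
  apply Units.ext
  rw [Units.val_pow_eq_pow_val, Units.val_one]
  show (Matrix.fromBlocks (M : Matrix (Fin i) (Fin i) F) 0 0
    ((M⁻¹ : GL (Fin i) F) : Matrix (Fin i) (Fin i) F)ᵀ) ^ r = 1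
  rw [fromBlocks_diag_pow, ← Matrix.transpose_pow, ← Units.val_pow_eq_pow_val,
    ← Units.val_pow_eq_pow_val, inv_pow, h]
  simp [Matrix.fromBlocks_one]

theorem hypGL_sub_one_det {i : ℕ} (M : GL (Fin i) F)
    (h : ((M : Matrix (Fin i) (Fin i) F) - 1).det ≠ 0) :
    IsUnit (((hypGL M : GL (Fin i ⊕ Fin i) F) : Matrix (Fin i ⊕ Fin i) (Fin i ⊕ Fin i) F)
      - 1).det := by
  have h1 : ((hypGL M : GL (Fin i ⊕ Fin i) F) : Matrix (Fin i ⊕ Fin i) (Fin i ⊕ Fin i) F) - 1 =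
      Matrix.fromBlocks ((M : Matrix (Fin i) (Fin i) F) - 1) 0 0
        (((M⁻¹ : GL (Fin i) F) : Matrix (Fin i) (Fin i) F) - 1)ᵀ := by
    show Matrix.fromBlocks (M : Matrix (Fin i) (Fin i) F) 0 0
      ((M⁻¹ : GL (Fin i) F) : Matrix (Fin i) (Fin i) F)ᵀ - 1 = _
    ext a b
    rcases a with a | a <;> rcases b with b | b <;>
      simp [Matrix.one_apply, Matrix.transpose_apply]
  rw [h1, Matrix.det_fromBlocks_zero₁₂, Matrix.det_transpose, isUnit_iff_ne_zero]
  refine mul_ne_zero h ?_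
  intro h0
  apply h
  have h2 : (((M⁻¹ : GL (Fin i) F) : Matrix (Fin i) (Fin i) F) - 1) *
      (M : Matrix (Fin i) (Fin i) F) = -((M : Matrix (Fin i) (Fin i) F) - 1) := by
    rw [sub_mul, ← Units.val_mul, inv_mul_cancel, Units.val_one, one_mul, neg_sub]
  have h3 := congrArg Matrix.det h2
  rw [Matrix.det_mul, h0, zero_mul, Matrix.det_neg] at h3
  rcases mul_eq_zero.1 h3.symm with h4 | h4
  · exact absurd h4 (pow_ne_zero _ (by norm_num))
  · exact h4

open Polynomial in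
theorem exists_block_GL [Fintype F] (r : ℕ) (hr : r.Prime) (hrq : ¬ r ∣ Fintype.card F) :
    ∃ M : GL (Fin (ordI (Fintype.card F) r)) F, M ^ r = 1 ∧
      ((M : Matrix (Fin (ordI (Fintype.card F) r)) (Fin (ordI (Fintype.card F) r)) F)
        - 1).det ≠ 0 := by
  classical
  obtain ⟨p, hp⟩ := CharP.exists F
  haveI : Fact p.Prime := ⟨CharP.char_is_prime F p⟩
  haveI : Fact r.Prime := ⟨hr⟩
  have hpq : p ∣ Fintype.card F := by
    obtain ⟨f, -, hf⟩ := FiniteField.card F p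
    rw [hf]
    exact dvd_pow_self p (PNat.ne_zero f)
  have hrp : r ≠ p := fun h => hrq (h ▸ hpq)
  obtain ⟨S, hS, ⟨π₀, hπ₀⟩⟩ :=
    Cfsg.Agent.Lib.Helper40.Elusive.exists_factors (F := F) (p := p) rfl r hrp
  have hS' : Cfsg.Agent.Lib.Helper40.PrimeOrderGL.Factors S r (ordI (Fintype.card F) r) := hS
  let a : S → ℕ := fun π => if π = ⟨π₀, hπ₀⟩ then 1 else 0
  have ha : ∑ π, a π = 1 := by
    simp [a]
  obtain ⟨g, hg, hχ⟩ := Cfsg.Agent.Lib.Helper40.PrimeOrderGL.exists_GL_chi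
    (n := ordI (Fintype.card F) r) p hS' hr.pos a (by rw [ha, mul_one])
  refine ⟨g, hg, ?_⟩
  have hχ' : (g : Matrix (Fin (ordI (Fintype.card F) r)) (Fin (ordI (Fintype.card F) r)) F).charpoly
      = π₀ := by
    rw [hχ, ha, mul_one, Nat.sub_self]
    simp only [Cfsg.Agent.Lib.Helper40.PrimeOrderGL.chi, pow_zero, one_mul]
    rw [Finset.prod_eq_single (⟨π₀, hπ₀⟩ : S)]
    · simp [a]
    · intro b _ hb
      simp [a, hb]
    · intro h
      exact absurd (Finset.mem_univ _) h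
  have heval : π₀.eval 1 ≠ 0 := by
    intro h0
    have hdvd : (X - C 1 : F[X]) ∣ π₀ := Polynomial.dvd_iff_isRoot.2 h0
    have hirr := hS'.irred π₀ hπ₀
    have hirr1 : Irreducible (X - C 1 : F[X]) := Polynomial.irreducible_X_sub_C 1
    have hassoc : Associated (X - C 1 : F[X]) π₀ := hirr1.associated_of_dvd hirr hdvd
    have heq : (X - C 1 : F[X]) = π₀ :=
      Polynomial.eq_of_monic_of_associated (Polynomial.monic_X_sub_C 1) (hS'.monic π₀ hπ₀) hassoc
    exact hS'.notMem (heq ▸ hπ₀)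
  intro hdet
  apply heval
  rw [← hχ', Matrix.eval_charpoly]
  have : (Matrix.scalar (Fin (ordI (Fintype.card F) r)) (1 : F)
      - (g : Matrix (Fin (ordI (Fintype.card F) r)) (Fin (ordI (Fintype.card F) r)) F))
      = -((g : Matrix (Fin (ordI (Fintype.card F) r)) (Fin (ordI (Fintype.card F) r)) F) - 1) := by
    simp
  rw [this, Matrix.det_neg, hdet, mul_zero]

/-- [EBLK-ODD] -/
theorem pkgEBlkOdd : PkgEBlkOdd.{u} := by
  intro F _ _ r hr hr2 hrq h2 hodd
  obtain ⟨M, hM, hdet⟩ := exists_block_GL (F := F) r hr hrq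
  have hpos := Cfsg.Agent.Lib.Helper84.OHyp.ordI_pos hr hrq
  refine ⟨Fin (ordI (Fintype.card F) r) ⊕ Fin (ordI (Fintype.card F) r), inferInstance,
    inferInstance, Cfsg.quadFormPlus (ordI (Fintype.card F) r) F, hypGL M,
    ⟨Sum.inl ⟨0, hpos⟩⟩, ?_, nondeg_quadFormPlus _, hypGL_mem M, hypGL_pow M r hM,
    hypGL_sub_one_det M hdet⟩
  rw [Fintype.card_sum, Fintype.card_fin]
  unfold cc
  rw [if_neg (Nat.not_even_iff_odd.2 hodd)]
  ring

end eblkodd

end Cfsg.Agent.Lib.Helper12.OHyp
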