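-- Team project OHYP (S5992), package [EXIST], sub-package [EBLK-EVEN] (helper12):
-- an isometry of order `r` without fixed vectors on the minus-type space of dimension `i`
-- (`i` even), from the order formula S0288 and Cauchy.
import Mathlib
import Cfsg.Agent.S0288
import Cfsg.Agent.Lib.Helper84.OHyp.Div
import Cfsg.Agent.Lib.Helper12.OHyp.ExDefs

set_option autoImplicit false
open scoped MatrixGroups
open Matrix

namespace Cfsg.Agent.Lib.Helper12.OHyp

open Cfsg.Agent.Lib.Helper23.OHyp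

universe u

section eblkeven

variable {F : Type u} [Field F]

theorem polar_quadFormMinus (n : ℕ) (a b : F) (u v : (Fin n ⊕ Fin n) ⊕ Fin 2 → F) :
    QuadraticMap.polar (Cfsg.quadFormMinus n F a b) u v =
      (∑ k : Fin n, (u (Sum.inl (Sum.inl k)) * v (Sum.inl (Sum.inr k)) +
        v (Sum.inl (Sum.inl k)) * u (Sum.inl (Sum.inr k)))) +
      (2 * u (Sum.inr 0) * v (Sum.inr 0) +
        a * (u (Sum.inr 0) * v (Sum.inr 1) + v (Sum.inr 0) * u (Sum.inr 1)) +
        2 * b * u (Sum.inr 1) * v (Sum.inr 1)) := by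
  simp only [QuadraticMap.polar, Cfsg.quadFormMinus, Pi.add_apply]
  have h : ∑ k : Fin n, (u (Sum.inl (Sum.inl k)) + v (Sum.inl (Sum.inl k))) *
      (u (Sum.inl (Sum.inr k)) + v (Sum.inl (Sum.inr k))) =
      ∑ k : Fin n, u (Sum.inl (Sum.inl k)) * u (Sum.inl (Sum.inr k)) +
      ∑ k : Fin n, v (Sum.inl (Sum.inl k)) * v (Sum.inl (Sum.inr k)) +
      ∑ k : Fin n, (u (Sum.inl (Sum.inl k)) * v (Sum.inl (Sum.inr k)) +
        v (Sum.inl (Sum.inl k)) * u (Sum.inl (Sum.inr k))) := by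
    rw [← Finset.sum_add_distrib, ← Finset.sum_add_distrib]
    exact Finset.sum_congr rfl (fun k _ => by ring)
  rw [h]
  ring

theorem nondeg_quadFormMinus (n : ℕ) (ν : F) (hν : ν ≠ 0) (h2 : (2 : F) ≠ 0) :
    Cfsg.Geo.IsNondegenerateQuadraticForm (Cfsg.quadFormMinus n F 0 (-ν)) := by
  classical
  refine ⟨?_, ⟨?_, ?_, ?_, ?_⟩, ?_⟩
  · intro c v
    simp only [Cfsg.quadFormMinus, Pi.smul_apply, smul_eq_mul]
    rw [mul_add, Finset.mul_sum]
    congr 1
    · exact Finset.sum_congr rfl (fun k _ => by ring)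
    · ring
  · intro x y v
    simp only [polar_quadFormMinus, Pi.add_apply]
    rw [add_add_add_comm, ← Finset.sum_add_distrib]
    congr 1
    · exact Finset.sum_congr rfl (fun k _ => by ring)
    · ring
  · intro c x v
    simp only [polar_quadFormMinus, Pi.smul_apply, smul_eq_mul]
    have hs : ∑ k : Fin n, (c * x (Sum.inl (Sum.inl k)) * v (Sum.inl (Sum.inr k)) +
        v (Sum.inl (Sum.inl k)) * (c * x (Sum.inl (Sum.inr k)))) =
        c * ∑ k : Fin n, (x (Sum.inl (Sum.inl k)) * v (Sum.inl (Sum.inr k)) +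
        v (Sum.inl (Sum.inl k)) * x (Sum.inl (Sum.inr k))) := by
      rw [Finset.mul_sum]
      exact Finset.sum_congr rfl (fun k _ => by ring)
    rw [hs]
    ring
  · intro v x y
    simp only [polar_quadFormMinus, Pi.add_apply]
    rw [add_add_add_comm, ← Finset.sum_add_distrib]
    congr 1
    · exact Finset.sum_congr rfl (fun k _ => by ring)
    · ring
  · intro c v x
    simp only [polar_quadFormMinus, Pi.smul_apply, smul_eq_mul]
    have hs : ∑ k : Fin n, (v (Sum.inl (Sum.inl k)) * (c * x (Sum.inl (Sum.inr k))) +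
        c * x (Sum.inl (Sum.inl k)) * v (Sum.inl (Sum.inr k))) =
        c * ∑ k : Fin n, (v (Sum.inl (Sum.inl k)) * x (Sum.inl (Sum.inr k)) +
        x (Sum.inl (Sum.inl k)) * v (Sum.inl (Sum.inr k))) := by
      rw [Finset.mul_sum]
      exact Finset.sum_congr rfl (fun k _ => by ring)
    rw [hs]
    ring
  · intro v hv
    have hex : ∃ z, v z ≠ 0 := by
      by_contra h
      push Not at h
      exact hv (funext h)
    obtain ⟨z, hz⟩ := hex
    have key : ∃ x : (Fin n ⊕ Fin n) ⊕ Fin 2 → F,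
        QuadraticMap.polar (Cfsg.quadFormMinus n F 0 (-ν)) x v ≠ 0 := by
      rcases z with (k | k) | k
      · refine ⟨Pi.single (Sum.inl (Sum.inr k)) 1, ?_⟩
        rw [polar_quadFormMinus]
        simpa [Pi.single_apply] using hz
      · refine ⟨Pi.single (Sum.inl (Sum.inl k)) 1, ?_⟩
        rw [polar_quadFormMinus]
        simpa [Pi.single_apply] using hz
      · have hk : k = 0 ∨ k = 1 := by
          fin_cases k
          · exact Or.inl rfl
          · exact Or.inr rfl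
        rcases hk with rfl | rfl
        · refine ⟨Pi.single (Sum.inr 0) 1, ?_⟩
          rw [polar_quadFormMinus]
          simp [Pi.single_apply]
          exact ⟨h2, hz⟩
        · refine ⟨Pi.single (Sum.inr 1) 1, ?_⟩
          rw [polar_quadFormMinus]
          simp [Pi.single_apply]
          exact ⟨⟨h2, hν⟩, hz⟩
    obtain ⟨x, hx⟩ := key
    exact ⟨⟨x, hx⟩, ⟨x, by rwa [QuadraticMap.polar_comm]⟩⟩

/-- [EBLK-EVEN] -/
theorem pkgEBlkEven_of (hSp : PkgSplit.{u}) (hDv : PkgDiv.{u}) : PkgEBlkEven.{u} := by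
  intro F _ _ r hr hr2 hrq h2 heven
  classical
  haveI : Fact r.Prime := ⟨hr⟩
  have hipos : 0 < ordI (Fintype.card F) r := Cfsg.Agent.Lib.Helper84.OHyp.ordI_pos hr hrq
  obtain ⟨j0, hj0⟩ := heven
  have hj0pos : 1 ≤ j0 := by omega
  have hchar : ringChar F ≠ 2 := by
    intro h
    apply h2
    have h3 := ringChar.Nat.cast_ringChar (R := F)
    rw [h] at h3
    exact_mod_cast h3
  obtain ⟨ν, hν⟩ := FiniteField.exists_nonsquare hchar
  have hν0 : ν ≠ 0 := by
    rintro rfl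
    exact hν ⟨0, by simp⟩
  have hab : ∀ z₁ z₂ : F, z₁ ^ 2 + 0 * z₁ * z₂ + (-ν) * z₂ ^ 2 = 0 → z₁ = 0 ∧ z₂ = 0 := by
    intro z₁ z₂ h
    have hz2 : z₂ = 0 := by
      by_contra hz
      apply hν
      refine ⟨z₁ / z₂, ?_⟩
      field_simp
      linear_combination -h
    subst hz2
    have h' : z₁ ^ 2 = 0 := by simpa using h
    exact ⟨pow_eq_zero_iff (by norm_num) |>.1 h', rfl⟩
  have hnd : Cfsg.Geo.IsNondegenerateQuadraticForm (Cfsg.quadFormMinus (j0 - 1) F 0 (-ν)) :=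
    nondeg_quadFormMinus (j0 - 1) ν hν0 h2
  have hcardG := Cfsg.Agent.S0288.result (F := F) (q := Fintype.card F) rfl j0 hj0pos 0 (-ν) hab
  have hdvd1 : r ∣ Fintype.card F ^ j0 + 1 := by
    have h1 : ((Fintype.card F : ℕ) : ZMod r) ^ ordI (Fintype.card F) r = 1 :=
      pow_orderOf_eq_one _
    have h2' : ((Fintype.card F : ℕ) : ZMod r) ^ j0 ≠ 1 := by
      apply pow_ne_one_of_lt_orderOf (by omega)
      show j0 < ordI (Fintype.card F) r
      omega
    have h3 : ((Fintype.card F : ℕ) : ZMod r) ^ j0 * ((Fintype.card F : ℕ) : ZMod r) ^ j0 = 1 := by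
      rw [← pow_add, ← hj0]
      exact h1
    have h4 : ((Fintype.card F : ℕ) : ZMod r) ^ j0 = -1 :=
      (mul_self_eq_one_iff.1 h3).resolve_left h2'
    rw [← ZMod.natCast_eq_zero_iff]
    push_cast
    rw [h4]
    ring
  have hdvd : r ∣ Nat.card (Cfsg.isometryGroup F (Cfsg.quadFormMinus (j0 - 1) F 0 (-ν))) := by
    rw [hcardG]
    exact Dvd.dvd.mul_right (Dvd.dvd.mul_left hdvd1 _) _
  obtain ⟨g, hg⟩ := exists_prime_orderOf_dvd_card' r hdvd
  have hyo : orderOf (g : GL ((Fin (j0 - 1) ⊕ Fin (j0 - 1)) ⊕ Fin 2) F) = r := by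
    rw [← hg]
    exact Subgroup.orderOf_coe g
  have hyr : (g : GL ((Fin (j0 - 1) ⊕ Fin (j0 - 1)) ⊕ Fin 2) F) ^ r = 1 := by
    rw [← hyo]
    exact pow_orderOf_eq_one _
  have hy1 : (g : GL ((Fin (j0 - 1) ⊕ Fin (j0 - 1)) ⊕ Fin 2) F) ≠ 1 := by
    intro h
    rw [h, orderOf_one] at hyo
    exact hr.one_lt.ne hyo
  have hrF : (r : F) ≠ 0 := by
    obtain ⟨p, hp⟩ := CharP.exists F
    haveI : Fact p.Prime := ⟨CharP.char_is_prime F p⟩
    intro h
    rw [CharP.cast_eq_zero_iff F p r] at h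
    have hpr : p = r := (Nat.prime_dvd_prime_iff_eq (CharP.char_is_prime F p) hr).1 h
    apply hrq
    obtain ⟨f, -, hf⟩ := FiniteField.card F p
    rw [hf, ← hpr]
    exact dvd_pow_self p (PNat.ne_zero f)
  have hStd : Std (Cfsg.quadFormMinus (j0 - 1) F 0 (-ν)) r
      ((g : GL ((Fin (j0 - 1) ⊕ Fin (j0 - 1)) ⊕ Fin 2) F) :
        Matrix ((Fin (j0 - 1) ⊕ Fin (j0 - 1)) ⊕ Fin 2) ((Fin (j0 - 1) ⊕ Fin (j0 - 1)) ⊕ Fin 2) F) :=
    { nondeg := hnd
      two := h2
      prime := hr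
      ne_two := hr2
      ndvd := hrq
      ne := hrF
      pow := by rw [← Units.val_pow_eq_pow_val, hyr, Units.val_one]
      isom := fun v => g.2 v v }
  obtain ⟨-, hndN, -, -, hinvN, -⟩ := hSp F _ _ r _ hStd
  obtain ⟨hcdvd, -⟩ := hDv F _ _ r _ hStd _ le_rfl hinvN hndN
  have hcc : cc (Fintype.card F) r = ordI (Fintype.card F) r :=
    Cfsg.Agent.Lib.Helper84.OHyp.cc_eq_of_even ⟨j0, hj0⟩
  have hcardκ : Fintype.card ((Fin (j0 - 1) ⊕ Fin (j0 - 1)) ⊕ Fin 2) =
      ordI (Fintype.card F) r := by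
    simp only [Fintype.card_sum, Fintype.card_fin]
    omega
  set A : Matrix ((Fin (j0 - 1) ⊕ Fin (j0 - 1)) ⊕ Fin 2) ((Fin (j0 - 1) ⊕ Fin (j0 - 1)) ⊕ Fin 2) F :=
    ((g : GL ((Fin (j0 - 1) ⊕ Fin (j0 - 1)) ⊕ Fin 2) F) :
        Matrix ((Fin (j0 - 1) ⊕ Fin (j0 - 1)) ⊕ Fin 2) ((Fin (j0 - 1) ⊕ Fin (j0 - 1)) ⊕ Fin 2) F)
    with hA
  have hrn := LinearMap.finrank_range_add_finrank_ker (Matrix.toLin' A - 1)
  rw [Module.finrank_fintype_fun_eq_card, hcardκ] at hrn
  have hmov : 0 < Module.finrank F (movSp A) := by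
    by_contra h0
    have h00 : Module.finrank F (movSp A) = 0 := by omega
    have hbot : movSp A = ⊥ := Submodule.finrank_eq_zero.1 h00
    unfold movSp at hbot
    rw [LinearMap.range_eq_bot, sub_eq_zero] at hbot
    apply hy1
    apply Units.ext
    rw [Units.val_one]
    apply Matrix.toLin'.injective
    rw [Matrix.toLin'_one]
    exact hbot
  have hmovi : Module.finrank F (movSp A) = ordI (Fintype.card F) r := by
    rw [hcc] at hcdvd
    obtain ⟨t, ht⟩ := hcdvd
    have hle : Module.finrank F (movSp A) ≤ ordI (Fintype.card F) r := by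
      unfold movSp
      omega
    rcases t with _ | _ | t
    · omega
    · omega
    · exfalso
      have : ordI (Fintype.card F) r * (t + 1 + 1) =
          ordI (Fintype.card F) r * t + 2 * ordI (Fintype.card F) r := by ring
      omega
  have hfix0 : Module.finrank F (LinearMap.ker (Matrix.toLin' A - 1)) = 0 := by
    unfold movSp at hmovi
    omega
  have hker : LinearMap.ker (Matrix.toLin' A - 1) = ⊥ := Submodule.finrank_eq_zero.1 hfix0
  have hinj : Function.Injective (A - 1).mulVec := by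
    intro v w hvw
    have h1 : (Matrix.toLin' A - 1) v = (Matrix.toLin' A - 1) w := by
      simp only [LinearMap.sub_apply, Matrix.toLin'_apply, Module.End.one_apply]
      simpa [Matrix.sub_mulVec] using hvw
    exact (LinearMap.ker_eq_bot.1 hker) h1
  have hunit : IsUnit (A - 1).det :=
    (Matrix.isUnit_iff_isUnit_det _).1 (Matrix.mulVec_injective_iff_isUnit.1 hinj)
  refine ⟨(Fin (j0 - 1) ⊕ Fin (j0 - 1)) ⊕ Fin 2, inferInstance, inferInstance,
    Cfsg.quadFormMinus (j0 - 1) F 0 (-ν), (g : GL ((Fin (j0 - 1) ⊕ Fin (j0 - 1)) ⊕ Fin 2) F),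
    ⟨Sum.inr 0⟩, ?_, hnd, g.2, hyr, hunit⟩
  rw [hcardκ, hcc]

end eblkeven

end Cfsg.Agent.Lib.Helper12.OHyp
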