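-- Team project OHYP (S5992), package [EXIST], sub-package [ESIM] (helper12):
-- nondegenerate quadratic forms in the same odd dimension over a finite field of odd
-- characteristic are similar.
import Mathlib
import Cfsg.Agent.Lib.Helper99.Quad2
import Cfsg.Agent.Lib.Helper12.OHyp.ExDefs

set_option autoImplicit false
open scoped MatrixGroups
open Matrix

namespace Cfsg.Agent.Lib.Helper12.OHyp

universe u

section esim

variable {F : Type u} [Field F]

/-- A non-degenerate quadratic form given as a function is a `QuadraticForm` with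
non-degenerate polar form. -/
theorem esim_exists_qf {ι : Type} {Q : (ι → F) → F}
    (hQ : Cfsg.Geo.IsNondegenerateQuadraticForm Q) :
    ∃ Q' : QuadraticForm F (ι → F), ⇑Q' = Q ∧ (QuadraticMap.polarBilin Q').Nondegenerate := by
  refine ⟨QuadraticMap.ofPolar Q (fun a x => by rw [hQ.smul, smul_eq_mul, pow_two])
    (fun x x' y => hQ.polar_bilinear.add_left x x' y)
    (fun a x y => by rw [hQ.polar_bilinear.smul_left, smul_eq_mul]), rfl, ?_, ?_⟩
  · intro x hx
    by_contra hx0
    obtain ⟨y, hy⟩ := (hQ.nondegenerate x hx0).2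
    exact hy (hx y)
  · intro y hy
    by_contra hy0
    obtain ⟨x, hx⟩ := (hQ.nondegenerate y hy0).1
    exact hx (hy x)

/-- The diagonal form `a x₀² + Σ x_z²` in dimension `2 m + 1`. -/
def diagQ (m : ℕ) (a : F) (w : Unit ⊕ (Fin m ⊕ Fin m) → F) : F :=
  a * w (Sum.inl ()) ^ 2 + ∑ z : Fin m ⊕ Fin m, w (Sum.inr z) ^ 2

theorem esim_exists_diag [Fintype F] {ι : Type} [Fintype ι] [DecidableEq ι] {Q : (ι → F) → F}
    (hQ : Cfsg.Geo.IsNondegenerateQuadraticForm Q) (h2 : (2 : F) ≠ 0) (m : ℕ)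
    (hm : Fintype.card ι = 2 * m + 1) :
    ∃ (a : F) (e : (ι → F) ≃ₗ[F] (Unit ⊕ (Fin m ⊕ Fin m) → F)),
      a ≠ 0 ∧ ∀ v, Q v = diagQ m a (e v) := by
  classical
  obtain ⟨QF, hQF, hnd⟩ := esim_exists_qf hQ
  have hfr : Module.finrank F (ι → F) = 2 * m + 1 := by
    rw [Module.finrank_fintype_fun_eq_card, hm]
  obtain ⟨k, b, hb0, hb1, hbo⟩ := Cfsg.Agent.Lib.Helper99.ortho_basis h2 QF hnd (by omega)
  have hk : k + 1 = 2 * m + 1 := by
    have := Module.finrank_eq_card_basis b
    rw [Fintype.card_fin] at this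
    omega
  have hcard : Fintype.card (Fin (k + 1)) = Fintype.card (Unit ⊕ (Fin m ⊕ Fin m)) := by
    simp only [Fintype.card_fin, Fintype.card_sum, Fintype.card_unit]
    omega
  let τ : Fin (k + 1) ≃ Unit ⊕ (Fin m ⊕ Fin m) := Fintype.equivOfCardEq hcard
  let σ : Fin (k + 1) ≃ Unit ⊕ (Fin m ⊕ Fin m) := τ.trans (Equiv.swap (τ 0) (Sum.inl ()))
  have hσ0 : σ 0 = Sum.inl () := by simp [σ]
  let b' := b.reindex σ
  have hb'0 : b' (Sum.inl ()) = b 0 := by
    rw [Module.Basis.reindex_apply]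
    congr 1
    rw [Equiv.symm_apply_eq]
    exact hσ0.symm
  have hb'1 : ∀ z, QF (b' (Sum.inr z)) = 1 := by
    intro z
    rw [Module.Basis.reindex_apply]
    have hne : σ.symm (Sum.inr z) ≠ 0 := by
      intro h
      have := congrArg σ h
      rw [Equiv.apply_symm_apply, hσ0] at this
      exact Sum.inr_ne_inl this
    obtain ⟨i, hi⟩ := Fin.exists_succ_eq_of_ne_zero hne
    rw [← hi]
    exact hb1 i
  have hb'o : ∀ z z', z ≠ z' → QuadraticMap.polar QF (b' z) (b' z') = 0 := by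
    intro z z' hz
    rw [Module.Basis.reindex_apply, Module.Basis.reindex_apply]
    exact hbo _ _ (fun h => hz (σ.symm.injective h))
  haveI : Invertible (2 : F) := invertibleOfNonzero h2
  have hortho : (QuadraticMap.associated (R := F) QF).IsOrthoᵢ b' := by
    rw [LinearMap.isOrthoᵢ_def]
    intro z z' hz
    rw [QuadraticMap.associated_apply]
    have := hb'o z z' hz
    rw [QuadraticMap.polar] at this
    rw [this, smul_zero]
  have hrepr := QuadraticMap.basisRepr_eq_of_iIsOrtho QF b' hortho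
  refine ⟨QF (b 0), b'.equivFun, hb0, fun v => ?_⟩
  have h1 : QF v = QF.basisRepr b' (b'.equivFun v) := by
    rw [QuadraticMap.basisRepr_apply]
    congr 1
    exact (b'.sum_equivFun v).symm
  rw [← hQF, h1, hrepr, QuadraticMap.weightedSumSquares_apply, Fintype.sum_sum_type]
  simp [diagQ, hb'0, hb'1, pow_two]

/-- The pairwise rotation. -/
def rot (m : ℕ) (s t : F) :
    (Unit ⊕ (Fin m ⊕ Fin m) → F) →ₗ[F] (Unit ⊕ (Fin m ⊕ Fin m) → F) where
  toFun w := fun z => match z with
    | Sum.inl _ => w (Sum.inl ())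
    | Sum.inr (Sum.inl i) => s * w (Sum.inr (Sum.inl i)) - t * w (Sum.inr (Sum.inr i))
    | Sum.inr (Sum.inr i) => t * w (Sum.inr (Sum.inl i)) + s * w (Sum.inr (Sum.inr i))
  map_add' w w' := by
    funext z
    rcases z with _ | i | i <;> simp <;> ring
  map_smul' c w := by
    funext z
    rcases z with _ | i | i <;> simp <;> ring

theorem diagQ_rot (m : ℕ) (a s t : F) (w : Unit ⊕ (Fin m ⊕ Fin m) → F) :
    diagQ m a (rot m s t w) = a * w (Sum.inl ()) ^ 2 +
      (s ^ 2 + t ^ 2) * ∑ z : Fin m ⊕ Fin m, w (Sum.inr z) ^ 2 := by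
  simp only [diagQ, rot, LinearMap.coe_mk, AddHom.coe_mk, Fintype.sum_sum_type]
  rw [← Finset.sum_add_distrib, ← Finset.sum_add_distrib, Finset.mul_sum]
  congr 1
  apply Finset.sum_congr rfl
  intro i _
  ring

theorem rot_rot (m : ℕ) (s t : F) (w : Unit ⊕ (Fin m ⊕ Fin m) → F) (z : Fin m ⊕ Fin m) :
    rot m s (-t) (rot m s t w) (Sum.inr z) = (s ^ 2 + t ^ 2) * w (Sum.inr z) := by
  rcases z with i | i <;> simp [rot] <;> ring

theorem rot_injective (m : ℕ) (s t : F) (hst : s ^ 2 + t ^ 2 ≠ 0) :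
    Function.Injective (rot m s t) := by
  rw [← LinearMap.ker_eq_bot, LinearMap.ker_eq_bot']
  intro w hw
  funext z
  rcases z with u | z
  · have := congrFun hw (Sum.inl ())
    simpa [rot] using this
  · have h1 := rot_rot m s t w z
    rw [hw, map_zero] at h1
    simp only [Pi.zero_apply] at h1
    exact (mul_eq_zero.1 h1.symm).resolve_left hst

theorem esim_diag_similar [Fintype F] (h2 : (2 : F) ≠ 0) (m : ℕ) (a a' : F) (ha : a ≠ 0)
    (ha' : a' ≠ 0) :
    ∃ g : (Unit ⊕ (Fin m ⊕ Fin m) → F) ≃ₗ[F] (Unit ⊕ (Fin m ⊕ Fin m) → F),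
      ∀ w, diagQ m a w = (a / a') * diagQ m a' (g w) := by
  classical
  have hodd : Fintype.card F % 2 = 1 := by
    apply FiniteField.odd_card_of_char_ne_two
    intro h
    apply h2
    have h3 := ringChar.Nat.cast_ringChar (R := F)
    rw [h] at h3
    exact_mod_cast h3
  obtain ⟨s, t, hst⟩ : ∃ s t : F, s ^ 2 + t ^ 2 = a' / a := by
    have hf2 : Polynomial.degree (Polynomial.X ^ 2 : Polynomial F) = 2 := by
      rw [Polynomial.degree_X_pow]; rfl
    have hg2 : Polynomial.degree (Polynomial.X ^ 2 - Polynomial.C (a' / a) : Polynomial F) = 2 := by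
      rw [Polynomial.degree_sub_C]
      · rw [Polynomial.degree_X_pow]; rfl
      · rw [Polynomial.degree_X_pow]; norm_num
    obtain ⟨x, y, hxy⟩ := FiniteField.exists_root_sum_quadratic hf2 hg2 hodd
    refine ⟨x, y, ?_⟩
    simp only [Polynomial.eval_pow, Polynomial.eval_X, Polynomial.eval_sub,
      Polynomial.eval_C] at hxy
    linear_combination hxy
  have hne : s ^ 2 + t ^ 2 ≠ 0 := by
    rw [hst]
    exact div_ne_zero ha' ha
  refine ⟨LinearEquiv.ofInjectiveEndo (rot m s t) (rot_injective m s t hne), fun w => ?_⟩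
  rw [LinearEquiv.coe_ofInjectiveEndo, diagQ_rot, hst]
  simp only [diagQ]
  field_simp

/-- [ESIM] -/
theorem pkgESim : PkgESim.{u} := by
  intro F _ _ ι ι' _ _ _ _ Q Q' hQ hQ' h2 hodd hcard
  obtain ⟨m, hm⟩ := hodd
  obtain ⟨a, e, ha, hae⟩ := esim_exists_diag hQ h2 m hm
  obtain ⟨a', e', ha', hae'⟩ := esim_exists_diag hQ' h2 m (hcard ▸ hm)
  obtain ⟨g, hg⟩ := esim_diag_similar h2 m a a' ha ha'
  refine ⟨a / a', (e.trans g).trans e'.symm, div_ne_zero ha ha', fun v => ?_⟩
  rw [hae, hg, hae']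
  simp

end esim

end Cfsg.Agent.Lib.Helper12.OHyp
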