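-- Team project OHYP (S5992), package [EXIST] (helper12): final assembly.
import Mathlib
import Cfsg.Agent.Lib.Helper12.OHyp.ExDefs
import Cfsg.Agent.Lib.Helper12.OHyp.ESim
import Cfsg.Agent.Lib.Helper12.OHyp.EBlkOdd
import Cfsg.Agent.Lib.Helper12.OHyp.EBlkEven
import Cfsg.Agent.Lib.Helper13.OHyp.EConj
import Cfsg.Agent.Lib.Helper15.OHyp.EMQ
import Cfsg.Agent.Lib.Helper37.OHyp.EMX

set_option autoImplicit false

namespace Cfsg.Agent.Lib.Helper12.OHyp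

open Cfsg.Agent.Lib.Helper23.OHyp

universe u

/-- [EXIST] from [SPLIT] and [DIV]. -/
theorem pkgExist_of_split_div (hSp : PkgSplit.{u}) (hDv : PkgDiv.{u}) : PkgExist.{u} :=
  pkgExist_of pkgEBlkOdd (pkgEBlkEven_of hSp hDv) Cfsg.Agent.Lib.Helper15.OHyp.pkgEMQ
    Cfsg.Agent.Lib.Helper37.OHyp.pkgEMX pkgESim Cfsg.Agent.Lib.Helper13.OHyp.pkgEConj

end Cfsg.Agent.Lib.Helper12.OHyp
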